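import Cfsg.Agent.H897.PQ.Eig
import Cfsg.Agent.H897.T5Cent

/-!
# S4612: the torus of type `-1` (PQ-X2, helper897)

* `exists_coords` : the coordinate elements of order `s` of the torus;
* `cent_coord` : they are centralised by the torus only (simply laced, `3 ≤ s`);
* `not_same_neg` : `¬ Same s m G` for all primes `s ≠ 2`, `m` dividing `q + 1`.
-/

set_option autoImplicit false
set_option linter.unusedSectionVars false

namespace Cfsg.Agent.H897.PQ

open CoxeterSystem Cfsg Cfsg.Lie Cfsg.Lie.ChevalleyDatum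
open Cfsg.Agent.ChevalleyStructure Cfsg.Agent.ChevalleyStructure.Elts Cfsg.Agent.ChevalleyStructure.CoxeterGeom
  Cfsg.Agent.ChevalleyStructure.CoxeterGeomTypes Cfsg.Agent.ChevalleyStructure.NPerm
open Cfsg.Agent.Tits.Roots Cfsg.Agent.Tits.Core Cfsg.Agent.Nodes Cfsg.Agent.Nodes.Reps Cfsg.Agent.Nodes.BNOf
  Cfsg.Agent.Nodes.RGDChev Cfsg.Agent.Nodes.Bruhat Cfsg.Agent.Nodes.SubComb Cfsg.Agent.Nodes.Coroot
open Cfsg.Agent.KFacts.RgdField Cfsg.Agent.KFacts.RgdChevCoord Cfsg.Agent.BpExc.TorCent Cfsg.Agent.BpExc.TorChev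
open Cfsg.Agent.GpExc.Field Cfsg.Agent.BpExc.Tow Cfsg.Agent.BpExc.TowChev Cfsg.Agent.BpExc.Fr
  Cfsg.Agent.BpExc.LangFr Cfsg.Agent.LangThm Cfsg.Agent.BpExc Cfsg.Agent.H129.TorusChar Cfsg.Agent.H129.TorusCent
  Cfsg.Agent.H129.TorusTw Cfsg.Agent.H129.TorusMain Cfsg.Agent.H493.PGTorus Cfsg.Agent.H493.PGTwist
open Cfsg.Agent.H795.SetCent Cfsg.Agent.H795.SetTor Cfsg.Agent.H720.TorusReal
open Cfsg.Agent.H897.T5Cent Cfsg.Agent.H317.PQ
open Cfsg.Agent.H897.T5Lat (Frm bf bf_apply)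

universe u v w'

section Neg

variable {D : ChevalleyDatum} {l : ℕ} {M : CoxeterMatrix (Fin l)} (hp : IsType D l M) {k : Type u} [Field k]
  [IsAlgClosed k] {W : Type v} [Group W] [Finite W] (cs : CoxeterSystem M W) (hk : LocFin k) {r : ℕ} [Fact r.Prime]
  [CharP k r]

/-- **The coordinate elements of the torus.** -/
theorem exists_coords {d' : ℕ} {B' : Fin l → Fin l → ℤ} (hB : InvC D l d' B') (hd' : d' ≠ 0) {s : ℕ} (hs0 : s ≠ 0)
    (hsr : ¬ r ∣ s) : ∃ ζ : k, IsPrimitiveRoot ζ s ∧ ∃ t : Fin l → ↥(D.group k), ∀ j, t j ∈ TT D k ∧ t j ^ s = 1 ∧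
      ∀ x, cX hp (t j) x = ζ ^ (x j) := by
  have hrk : (s : k) ≠ 0 := by
    rw [Ne, CharP.cast_eq_zero_iff k r]
    exact hsr
  have : NeZero (s : k) := ⟨hrk⟩
  obtain ⟨u, hu⟩ := HasEnoughRootsOfUnity.exists_primitiveRoot k s
  have hu0 : u ≠ 0 := hu.ne_zero hs0
  have key : ∀ j : Fin l, ∃ t ∈ TT D k, ∀ x, cX hp t x = u ^ (x j) := by
    intro j
    have hMC : IsMC (fun x : Fin l → ℤ => u ^ (x j)) :=
      ⟨by
        show u ^ ((0 : Fin l → ℤ) j) = 1
        rw [Pi.zero_apply, zpow_zero],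
      fun x y => by
        show u ^ ((x + y) j) = u ^ (x j) * u ^ (y j)
        rw [Pi.add_apply, zpow_add₀ hu0]⟩
    obtain ⟨t, ht, hcX⟩ := exists_cX hp hB hd' hMC fun i =>
      IsAlgClosed.exists_pow_nat_eq _ (Nat.pos_of_ne_zero hd')
    exact ⟨t, ht, hcX⟩
  choose t ht hcX using key
  refine ⟨u, hu, t, fun j => ⟨ht j, ?_, hcX j⟩⟩
  refine cX_inj hp (pow_mem (ht j) s) (one_mem _) fun i => ?_
  rw [cX_pow hp (ht j), cX_one, hcX, ← zpow_natCast, ← zpow_mul]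
  rw [mul_comm, zpow_mul, zpow_natCast, hu.pow_eq_one, one_zpow]

theorem norm_smul_ge (F : Frm cs hp.isCartan (bf (cartanOf D l))) {s : ℕ} (hs : 3 ≤ s) {v : Fin l → ℤ}
    (hv : v ≠ 0) : 9 ≤ bf (cartanOf D l) ((s : ℤ) • v) ((s : ℤ) • v) := by
  have h1 : (1 : ℤ) ≤ bf (cartanOf D l) v v := F.pos v hv
  have h2 : bf (cartanOf D l) ((s : ℤ) • v) ((s : ℤ) • v) = (s : ℤ) * s * bf (cartanOf D l) v v := by
    simp only [map_smul, LinearMap.smul_apply, smul_eq_mul]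
    ring
  rw [h2]
  have h3 : (3 : ℤ) ≤ s := by exact_mod_cast hs
  nlinarith

include hk r in
/-- **The coordinate elements are centralised by the torus only.** -/
theorem cent_coord (F : Frm cs hp.isCartan (bf (cartanOf D l))) {s : ℕ} (hs : 3 ≤ s) {ζ : k}
    (hζ : IsPrimitiveRoot ζ s) {t : Fin l → ↥(D.group k)} (ht : ∀ j, t j ∈ TT D k)
    (hc : ∀ j x, cX hp (t j) x = ζ ^ (x j)) {c : ↥(D.group k)} (hcc : ∀ j, c * t j = t j * c) : c ∈ TT D k := by
  have hone : ∀ z : ℤ, ζ ^ z = 1 ↔ (s : ℤ) ∣ z := fun z => hζ.zpow_eq_one_iff_dvd z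
  have hζ0 : ζ ≠ 0 := hζ.ne_zero (by omega)
  have hdiv : ∀ x : Fin l → ℤ, (∀ j, (s : ℤ) ∣ x j) → ∃ v : Fin l → ℤ, x = (s : ℤ) • v := by
    intro x hx
    choose v hv using hx
    exact ⟨v, funext fun j => by rw [Pi.smul_apply, smul_eq_mul]; exact hv j⟩
  have hZ : (Set.range t) ⊆ TL (Tj hp (k := k)) := by
    rintro _ ⟨j, rfl⟩
    exact (mem_TL' hp hk).2 (ht j)
  obtain ⟨m, hm, w, kk, hkk, hkt, rfl⟩ := exists_form_centralizer (tow hp cs hk r) (coL hp cs hk r)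
    (GG_eq_top hp cs hk) (Set.finite_range t) hZ (c := c) (by
      rintro _ ⟨j, rfl⟩
      exact hcc j)
  -- no root is trivial on the coordinate elements
  have hS : SxZ cs hp.isCartan (ch (K := k) hp) (Set.range t) = ∅ := by
    rw [Set.eq_empty_iff_forall_notMem]
    rintro a ⟨ha, hat⟩
    have h1 : ∀ j, (s : ℤ) ∣ a j := by
      intro j
      rw [← hone, ← hc j, cX_root hp cs (ht j) ha]
      exact hat _ ⟨j, rfl⟩
    obtain ⟨v, hv⟩ := hdiv a h1
    have hv0 : v ≠ 0 := by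
      rintro rfl
      have h2 := F.self ha
      rw [hv, smul_zero, map_zero] at h2
      simp at h2
    have h2 := norm_smul_ge hp cs F hs hv0
    rw [← hv, F.self ha] at h2
    omega
  have hm1 : m = 1 := by
    have h1 := hm
    rw [MMZ, hS, OppDec.Sup_empty, Subgroup.mem_bot] at h1
    exact h1
  have hw1 : w = 1 := by
    have hCW := mem_CW_of_comm (tow hp cs hk r) (coL hp cs hk r) hZ hkk hkt
    refine eq_one_of_fix cs hp.isCartan w fun i => ?_
    have hi : IsRoot cs hp.isCartan (sr i) := isRoot_sr cs hp.isCartan i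
    have hβ : IsRoot cs hp.isCartan (rep cs hp.isCartan w (sr i)) := hi.act w
    have h1 : ∀ j, (s : ℤ) ∣ (rep cs hp.isCartan w (sr i) - sr i) j := by
      intro j
      have h2 := (mem_CW.1 hCW) (sr i) hi (t j) ⟨j, rfl⟩
      rw [← cX_root hp cs (ht j) hβ, ← cX_root hp cs (ht j) hi, hc, hc] at h2
      rw [← hone, Pi.sub_apply, zpow_sub₀ hζ0, h2, div_self (zpow_ne_zero _ hζ0)]
    obtain ⟨v, hv⟩ := hdiv _ h1
    by_contra hne
    have hv0 : v ≠ 0 := by
      rintro rfl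
      rw [smul_zero, sub_eq_zero] at hv
      exact hne hv
    have h2 := norm_smul_ge hp cs F hs hv0
    rw [← hv] at h2
    have h3 := F.norm_sub_smul (rep cs hp.isCartan w (sr i)) (sr i) 1
    rw [one_smul, F.self hβ, F.self hi] at h3
    have h4 := F.norm_add (rep cs hp.isCartan w (sr i)) (sr i)
    have h5 := F.nonneg (rep cs hp.isCartan w (sr i) + sr i)
    rw [h4, F.self hβ, F.self hi] at h5
    rw [h3] at h2
    linarith
  rw [hm1, one_mul]
  rw [hw1] at hkk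
  exact (mem_TL' hp hk).1 hkk.mem_of_one

variable {e : ℕ} {σ : MulAut ↥(D.group k)} {g : (Fin l → ℤ) ≃+ (Fin l → ℤ)}
  {G0 : Type w'} [Group G0] {e0 : G0 →* ↥(D.group k)}

/-- an additive map which is `-1` on the basis -/
theorem neg_of_basis {θ : (Fin l → ℤ) ≃+ (Fin l → ℤ)} (h : ∀ j, θ (sr j) = - sr j) (x : Fin l → ℤ) : θ x = -x := by
  have h1 : θ.toAddMonoidHom = -(AddMonoidHom.id (Fin l → ℤ)) := by
    refine AddMonoidHom.toIntLinearMap_injective ?_
    refine (Pi.basisFun ℤ (Fin l)).ext fun j => ?_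
    rw [Pi.basisFun_apply]
    exact h j
  exact DFunLike.congr_fun h1 x

/-- the torsion elements of the torus of type `-1` are fixed -/
theorem fix_of_pow (hσ : IsFrob r e σ) (F : Fr cs hp.isCartan (TT D k) (XX D l k) σ g) (hg : ∀ x, g x = -x)
    {t : ↥(D.group k)} (ht : t ∈ TT D k) {N : ℕ} (htN : t ^ N = 1) (hN : N ∣ r ^ e + 1) : σ t = t := by
  have hσt : σ t ∈ TT D k := (F.tor _).2 ht
  refine cX_inj hp hσt ht fun i => ?_
  have h1 : (sr i : Fin l → ℤ) = g (-(sr i)) := by rw [hg, neg_neg]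
  have h2 := cX_sigma hp cs hσ F ht (-(sr i))
  rw [← h1] at h2
  rw [h2]
  have h3 : cX hp t (-(sr i)) * cX hp t (sr i) = 1 := by
    have h4 := (isMC_cX hp ht).2 (-(sr i)) (sr i)
    rw [neg_add_cancel, (isMC_cX hp ht).1] at h4
    exact h4.symm
  have h4 : cX hp t (sr i) ^ (r ^ e + 1) = 1 := by
    obtain ⟨c, hc⟩ := hN
    rw [hc, pow_mul, ← cX_pow hp ht, htN, cX_one, one_pow]
  have h5 : cX hp t (-(sr i)) ^ r ^ e * cX hp t (sr i) ^ r ^ e = 1 := by rw [← mul_pow, h3, one_pow]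
  rw [pow_succ] at h4
  have h6 : cX hp t (sr i) ^ r ^ e ≠ 0 := pow_ne_zero _ ((isMC_cX hp ht).ne_zero _)
  exact mul_right_cancel₀ h6 (h5.trans (by rw [mul_comm] at h4; exact h4.symm))

include hk in
/-- **Primes dividing `q + 1`, torus of type `-1`.** -/
theorem not_same_neg [Finite G0] (he : 0 < e) (hσ : IsFrob r e σ)
    (F : Fr cs hp.isCartan (TT D k) (XX D l k) σ g) {d' : ℕ} {B' : Fin l → Fin l → ℤ} (hB : InvC D l d' B')
    (hd' : d' ≠ 0) (he0 : Function.Injective e0) {d : ℕ} (hd : ∀ y, σ y = y → y ^ d ∈ e0.range)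
    (Fm : Frm cs hp.isCartan (bf (cartanOf D l))) (hl : 0 < l)
    {w : W} (hw : ∀ j, rep cs hp.isCartan w (g (sr j)) = - sr j)
    {s m : ℕ} (hs : s.Prime) (hm : m.Prime) (hs2 : s ≠ 2) (hsm : s ≠ m) (hsd : ¬ s ∣ d) (hmd : ¬ m ∣ d)
    (hsr : s ≠ r) (hmr : m ≠ r) (hsq : s ∣ r ^ e + 1) (hmq : m ∣ r ^ e + 1) : ¬ Same s m G0 := by
  intro hS
  obtain ⟨n, z, hz, hσ', F'⟩ := exists_z hp cs hk he hσ F w
  have hg' : ∀ x, (g.trans (repAut cs hp.isCartan w)) x = -x := neg_of_basis hw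
  have hnp : ∀ {b : ℕ}, b.Prime → b ≠ r → ¬ r ∣ b := fun hb hbr h1 =>
    hbr ((Nat.prime_dvd_prime_iff_eq (Fact.out : r.Prime) hb).1 h1).symm
  have hs3 : 3 ≤ s := by have := hs.two_le; omega
  obtain ⟨ζ, hζ, t, ht⟩ := exists_coords hp hB hd' hs.ne_zero (hnp hs hsr) (k := k)
  obtain ⟨ξ, hξ, y, hy⟩ := exists_coords hp hB hd' hm.ne_zero (hnp hm hmr) (k := k)
  have hAc := tor_comm hp he0 z
  let Ds : Subgroup G0 :=
    { carrier := {x | x ∈ tor hp e0 z ∧ x ^ s = 1}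
      mul_mem' := by
        rintro x y ⟨hx, hx'⟩ ⟨hy, hy'⟩
        refine ⟨mul_mem hx hy, ?_⟩
        have h1 : Commute x y := hAc x hx y hy
        rw [h1.mul_pow, hx', hy', one_mul]
      one_mem' := ⟨one_mem _, one_pow _⟩
      inv_mem' := by
        rintro x ⟨hx, hx'⟩
        exact ⟨inv_mem hx, by rw [inv_pow, hx', inv_one]⟩ }
  have hDs : IsPGroup s Ds := fun x => ⟨1, Subtype.ext (by
    rw [pow_one]
    exact x.2.2)⟩
  have hsdc : s.Coprime d := (Nat.Prime.coprime_iff_not_dvd hs).2 hsd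
  have hmdc : m.Coprime d := (Nat.Prime.coprime_iff_not_dvd hm).2 hmd
  have hcent : ∀ c ∈ Subgroup.centralizer (Ds : Set G0), c ∈ tor hp e0 z := by
    intro c hc
    refine cent_coord hp cs hk (r := r) Fm hs3 hζ (fun j => (ht j).1) (fun j => (ht j).2.2) fun j => ?_
    obtain ⟨x, hx⟩ := hd _ (fix_conj hz (fix_of_pow hp cs hσ' F' hg' (ht j).1 (ht j).2.1 hsq))
    rw [conj_pow] at hx
    have hxD : x ∈ Ds := by
      refine ⟨?_, he0 ?_⟩
      · show z⁻¹ * e0 x * z ∈ TT D k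
        have h1 : z⁻¹ * e0 x * z = t j ^ d := by
          rw [hx]
          group
        rw [h1]
        exact pow_mem (ht j).1 d
      · rw [map_pow, hx, conj_pow, ← pow_mul, mul_comm d, pow_mul, (ht j).2.1, one_pow, mul_one, mul_inv_cancel,
          map_one]
    have h2 := (Subgroup.mem_centralizer_iff.1 hc) x hxD
    have h3 : Commute (z⁻¹ * e0 c * z) (t j ^ d) := by
      have h4 : t j ^ d = z⁻¹ * e0 x * z := by
        rw [hx]
        group
      show z⁻¹ * e0 c * z * t j ^ d = t j ^ d * (z⁻¹ * e0 c * z)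
      rw [h4]
      have h5 : z⁻¹ * e0 c * z * (z⁻¹ * e0 x * z) = z⁻¹ * e0 (c * x) * z := by
        rw [map_mul]
        group
      have h6 : z⁻¹ * e0 x * z * (z⁻¹ * e0 c * z) = z⁻¹ * e0 (x * c) * z := by
        rw [map_mul]
        group
      rw [h5, h6, h2]
    -- `t j` is a power of `t j ^ d`
    obtain ⟨a, ha⟩ : ∃ a : ℕ, (t j ^ d) ^ a = t j := by
      have h4 : (orderOf (t j)).Coprime d := Nat.Coprime.coprime_dvd_left (orderOf_dvd_of_pow_eq_one (ht j).2.1) hsdc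
      exact exists_pow_eq_self_of_coprime h4.symm
    have h4 := h3.pow_right a
    rw [ha] at h4
    exact h4.eq
  -- the element of order `m`
  let j0 : Fin l := ⟨0, hl⟩
  obtain ⟨x, hx⟩ := hd _ (fix_conj hz (fix_of_pow hp cs hσ' F' hg' (hy j0).1 (hy j0).2.1 hmq))
  rw [conj_pow] at hx
  have hxA : x ∈ tor hp e0 z := by
    show z⁻¹ * e0 x * z ∈ TT D k
    have h1 : z⁻¹ * e0 x * z = y j0 ^ d := by
      rw [hx]
      group
    rw [h1]
    exact pow_mem (hy j0).1 d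
  have hxm : x ^ m = 1 := by
    apply he0
    rw [map_pow, hx, conj_pow, ← pow_mul, mul_comm d, pow_mul, (hy j0).2.1, one_pow, mul_one, mul_inv_cancel,
      map_one]
  have hx1 : x ≠ 1 := by
    intro h1
    rw [h1, map_one] at hx
    have h2 : y j0 ^ d = 1 := by
      have h3 : z * y j0 ^ d * z⁻¹ = 1 := hx.symm
      rwa [mul_inv_eq_one, mul_eq_left] at h3
    have h3 : orderOf (y j0) ∣ Nat.gcd m d :=
      Nat.dvd_gcd (orderOf_dvd_of_pow_eq_one (hy j0).2.1) (orderOf_dvd_of_pow_eq_one h2)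
    rw [hmdc, Nat.dvd_one, orderOf_eq_one_iff] at h3
    have h4 := (hy j0).2.2 (sr j0)
    rw [h3, cX_one, sr_self, zpow_one] at h4
    have h5 := hξ.pow_eq_one_iff_dvd 1
    rw [pow_one] at h5
    exact hm.one_lt.ne' (Nat.dvd_one.1 (h5.1 h4.symm))
  have hox : orderOf x = m := by
    have : Fact m.Prime := ⟨hm⟩
    exact orderOf_eq_prime hxm hx1
  have hxC : x ∈ Subgroup.centralizer (Ds : Set G0) :=
    Subgroup.mem_centralizer_iff.2 fun c hc => hAc c hc.1 x hxA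
  have hN : (Subgroup.zpowers (⟨x, hxC⟩ : ↥(Subgroup.centralizer (Ds : Set G0)))).Normal := by
    refine ⟨fun a ha b => ?_⟩
    have h1 : b * a = a * b := Subtype.ext (hAc _ (hcent _ b.2) _ (hcent _ a.2))
    rw [h1, mul_inv_cancel_right]
    exact ha
  have hcard : Nat.card (Subgroup.zpowers (⟨x, hxC⟩ : ↥(Subgroup.centralizer (Ds : Set G0)))) = m := by
    rw [Nat.card_zpowers, ← hox]
    exact Subgroup.orderOf_mk x hxC
  refine Cfsg.Agent.H990.PQ.Same.core_subgroup hs hm hsm hS Ds hDs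
    (Subgroup.zpowers (⟨x, hxC⟩ : ↥(Subgroup.centralizer (Ds : Set G0)))) ?_ (by rw [hcard])
  rw [hcard]
  exact fun h1 => hsm ((Nat.prime_dvd_prime_iff_eq hs hm).1 h1)

end Neg

end Cfsg.Agent.H897.PQ
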