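import Cfsg.Agent.H897.PQ.ESeven
import Cfsg.Agent.H897.PQ.Neg
import Cfsg.Agent.H897.T5Conn

/-!
# S4612: tori of untwisted groups with `-1 ∈ W`: primes dividing `q + 1` (PQ-X2b, helper897)

* `not_same_untw` : `¬ Same s m (D.group F)` for all primes `s ≠ 2`, `m` dividing `q + 1`, prime to `d`;
* `tor_E7` : `Kill (E₇(q)) q e e` for all orders `e`.
-/

set_option autoImplicit false
set_option linter.unusedSectionVars false

namespace Cfsg.Agent.H897.PQ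

open CoxeterSystem Cfsg Cfsg.Lie Cfsg.Lie.ChevalleyDatum
open Cfsg.Agent.ChevalleyStructure Cfsg.Agent.ChevalleyStructure.Elts Cfsg.Agent.ChevalleyStructure.CoxeterGeom
  Cfsg.Agent.ChevalleyStructure.CoxeterGeomTypes Cfsg.Agent.ChevalleyStructure.NPerm
open Cfsg.Agent.Tits.Roots Cfsg.Agent.Tits.Core Cfsg.Agent.Nodes Cfsg.Agent.Nodes.Reps Cfsg.Agent.Nodes.BNOf
  Cfsg.Agent.Nodes.RGDChev Cfsg.Agent.Nodes.Bruhat Cfsg.Agent.Nodes.SubComb Cfsg.Agent.Nodes.Coroot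
open Cfsg.Agent.BpExc.Tow Cfsg.Agent.BpExc.TowChev Cfsg.Agent.BpExc.FamExt Cfsg.Agent.BpExc.FamUntw
  Cfsg.Agent.BpExc.FamInst Cfsg.Agent.BpExc.LangFr Cfsg.Agent.BpExc.FamField Cfsg.Agent.BpExc.Fr
open Cfsg.Agent.GpExc.Field (emb emb_injective)
open Cfsg.Agent.H129.WData Cfsg.Agent.H493.PGTorus Cfsg.Agent.H493.PGTwist Cfsg.Agent.H378.CycTab
open Cfsg.Agent.H28.T5Tor Cfsg.Agent.H28.T5TorRows Cfsg.Agent.H317.PQ
open Cfsg.Agent.H172.SI Cfsg.Agent.H129
open Cfsg.Agent.H897.T5Lat (Frm bf bf_apply)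
open Cfsg.Agent.H897.T5Conn

universe u v

/-- **Primes dividing `q + 1`, untwisted groups with `-1` in the Weyl group.** -/
theorem not_same_untw {D : ChevalleyDatum} {l : ℕ} {M : CoxeterMatrix (Fin l)} (hp : IsType D l M) {W : Type v}
    [Group W] [Finite W] (cs : CoxeterSystem M W) {d : ℕ} {B : Fin l → Fin l → ℤ} (hB : InvC D l d B) (hd : d ≠ 0)
    (Fm : Frm cs hp.isCartan (bf (cartanOf D l))) (hl : 0 < l) {F : Type u} [Field F] [Finite F]
    [Finite ↥(D.group F)] {w : W} (hw : ∀ j, rep cs hp.isCartan w (sr j) = - sr j) {s m : ℕ} (hs : s.Prime)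
    (hm : m.Prime) (hs2 : s ≠ 2) (hsm : s ≠ m) (hsd : ¬ s ∣ Nat.gcd d (Nat.card F - 1))
    (hmd : ¬ m ∣ Nat.gcd d (Nat.card F - 1)) (hsq : s ∣ Nat.card F + 1) (hmq : m ∣ Nat.card F + 1) :
    ¬ Same s m ↥(D.group F) := by
  obtain ⟨k, _, _, g, r, _, _, n, hk, -, hn0, hn⟩ := Cfsg.Agent.H378.TorFin.exists_closure F
  have hne : ∀ {b : ℕ}, b.Prime → b ∣ Nat.card F + 1 → b ≠ r := by
    rintro b hb hbq rfl
    have h1 : b ∣ Nat.card F := hn ▸ dvd_pow_self _ hn0.ne'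
    exact hb.one_lt.ne' (Nat.dvd_one.1 ((Nat.dvd_add_right h1).1 hbq))
  exact not_same_neg hp cs hk hn0 (phi_isFrob r n) (phi_fr hp cs r hk n) hB hd (emb_injective hp.inList g)
    (fun y hy => Cfsg.Agent.H378.RootTor.fix_pow_mem' hp g r hn hB hd hy) Fm hl hw hs hm hs2 hsm hsd hmd
    (hne hs hsq) (hne hm hmq) (hn ▸ hsq) (hn ▸ hmq)

theorem par7' : Par CoxeterMatrix.E₇ 1 ![2, 1, 3, 1, 3, 4, 5] 7 := ⟨by decide +kernel, rfl, by decide +kernel⟩

set_option backward.isDefEq.respectTransparency false in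
theorem n7' : ∀ i j : Fin 7, CoxeterMatrix.E₇ i j ≠ 4 ∧ CoxeterMatrix.E₇ i j ≠ 6 := by decide

/-- the matrix of `-1` -/
def N7 : Mat 7 := fun j m => if j = m then -1 else 0

theorem p79 : MulOK M73 M76 N7 := by decide +kernel

theorem neg7 : ∃ w : CoxeterMatrix.E₇.Group, ∀ j,
    rep CoxeterMatrix.E₇.toCoxeterSystem Cfsg.Agent.H493.PGE7.hp.isCartan w (sr j) = - sr j := by
  have := Cfsg.Agent.H493.PGE7.finW
  have h2 := rows_mul Cfsg.Agent.H493.PGE7.hp _ cox7 cox7 p72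
  have h3 := rows_mul Cfsg.Agent.H493.PGE7.hp _ cox7 h2 p73
  have h6 := rows_mul Cfsg.Agent.H493.PGE7.hp _ h3 h3 p76
  have h9 := rows_mul Cfsg.Agent.H493.PGE7.hp _ h3 h6 p79
  refine ⟨_, fun j => (h9 j).trans ?_⟩
  funext m
  show (if j = m then (-1 : ℤ) else 0) = -((sr j : Fin 7 → ℤ) m)
  by_cases hm : j = m
  · subst hm; rw [if_pos rfl, sr_self]
  · rw [if_neg hm, sr_ne (Ne.symm hm), neg_zero]

theorem fin7 {F : Type} [Field F] [Fintype F] : Finite ↥(chevE7.group F) := Nat.finite_of_card_ne_zero (by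
  intro h0
  have h1 := deg_E7.card (F := F)
  rw [h0, mul_zero] at h1
  have h2 : Fintype.card F ^ 63 * pr (Fintype.card F) [2, 6, 8, 10, 12, 14, 18] ≠ 0 :=
    mul_ne_zero (pow_ne_zero _ Fintype.card_ne_zero) (pr_ne_zero Fintype.one_lt_card (by decide))
  exact h2 h1.symm)

variable {F : Type} [Field F] [Fintype F]

theorem kill7_2 : Kill ↥(chevE7.group F) (Fintype.card F) 2 2 := by
  intro s m hs hm hs2 hm2 hsm hsG hmG hse hme
  have := Cfsg.Agent.H493.PGE7.finW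
  have := fin7 (F := F)
  have hc : Nat.card F = Fintype.card F := Nat.card_eq_fintype_card
  have Fm := par7'.frm CoxeterMatrix.E₇.toCoxeterSystem Cfsg.Agent.H493.PGE7.hp.isCartan (fun i j => (n7' i j).1)
    (fun i j => (n7' i j).2)
  obtain ⟨w, hw⟩ := neg7
  have key : ∀ {t : ℕ}, t.Prime → t ≠ 2 → ord (Fintype.card F) t = 2 →
      ¬ t ∣ Nat.gcd 2 (Nat.card F - 1) ∧ t ∣ Nat.card F + 1 := by
    intro t ht ht2 hte
    refine ⟨fun h1 => ht2 ((Nat.prime_dvd_prime_iff_eq ht Nat.prime_two).1 (h1.trans (Nat.gcd_dvd_left _ _))), ?_⟩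
    have h1 := dvd2 ht (q := Fintype.card F) hte
    rw [pv2] at h1
    rw [hc]
    exact_mod_cast h1
  exact not_same_untw Cfsg.Agent.H493.PGE7.hp CoxeterMatrix.E₇.toCoxeterSystem TorusChar.invC_E7 (by norm_num)
    Fm (by norm_num) hw hs hm hs2 hsm (key hs hs2 hse).1 (key hm hm2 hme).1 (key hs hs2 hse).2 (key hm hm2 hme).2

/-- **PQ-X2b.** -/
theorem tor_E7 : ∀ e ∈ [2, 3, 4, 5, 6, 7, 8, 9, 10, 12, 14, 18], Kill ↥(chevE7.group F) (Fintype.card F) e e := by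
  intro e he
  simp only [List.mem_cons, List.not_mem_nil, or_false] at he
  rcases he with rfl | rfl | rfl | rfl | rfl | rfl | rfl | rfl | rfl | rfl | rfl | rfl
  · exact kill7_2
  · exact kill7_3
  · exact kill7_4
  · exact kill7_5
  · exact kill7_6
  · exact kill7_7
  · exact kill7_8
  · exact kill7_9
  · exact kill7_10
  · exact kill7_12
  · exact kill7_14
  · exact kill7_18

end Cfsg.Agent.H897.PQ
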