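import Cfsg.Agent.H28.T5TorRows
import Cfsg.Agent.H990.PQ.Core
import Cfsg.Agent.H317.PQ.Exc

/-!
# S4612: pairs of primes of the same order, from maximal tori (PQ-X2, helper897)

* `abel_of_eig` : a commutative subgroup containing a Sylow `ℓ`-subgroup and elements of order `m`;
* `kill_of_abel` : `Kill G q e e`;
* `kill_tab` : untwisted groups, from a table of eigenfunctionals.
-/

set_option autoImplicit false
set_option linter.unusedSectionVars false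

namespace Cfsg.Agent.H897.PQ

open CoxeterSystem Cfsg Cfsg.Lie Cfsg.Lie.ChevalleyDatum
open Cfsg.Agent.ChevalleyStructure Cfsg.Agent.ChevalleyStructure.Elts Cfsg.Agent.ChevalleyStructure.CoxeterGeom
  Cfsg.Agent.ChevalleyStructure.CoxeterGeomTypes Cfsg.Agent.ChevalleyStructure.NPerm
open Cfsg.Agent.Tits.Roots Cfsg.Agent.Tits.Core Cfsg.Agent.Nodes Cfsg.Agent.Nodes.Reps Cfsg.Agent.Nodes.BNOf
  Cfsg.Agent.Nodes.RGDChev Cfsg.Agent.Nodes.Bruhat Cfsg.Agent.Nodes.SubComb Cfsg.Agent.Nodes.Coroot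
open Cfsg.Agent.KFacts.RgdField Cfsg.Agent.KFacts.RgdChevCoord Cfsg.Agent.BpExc.TorCent Cfsg.Agent.BpExc.TorChev
open Cfsg.Agent.GpExc.Field Cfsg.Agent.BpExc.Tow Cfsg.Agent.BpExc.TowChev Cfsg.Agent.BpExc.Fr
  Cfsg.Agent.BpExc.LangFr Cfsg.Agent.LangThm Cfsg.Agent.BpExc Cfsg.Agent.H129.TorusChar Cfsg.Agent.H129.TorusCent
  Cfsg.Agent.H129.TorusTw Cfsg.Agent.H129.TorusMain Cfsg.Agent.H493.PGTorus Cfsg.Agent.H493.PGTwist
open Cfsg.Agent.H28.T5Tor Cfsg.Agent.H28.T5TorRows Cfsg.Agent.H317.PQ Cfsg.Agent.H378.CycTab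
open Cfsg.Agent.H129.WData

universe u

section Main

variable {D : ChevalleyDatum} {l : ℕ} {M : CoxeterMatrix (Fin l)} (hp : IsType D l M) {k : Type u} [Field k]
  [IsAlgClosed k] {W : Type*} [Group W] [Finite W] (cs : CoxeterSystem M W) {p e : ℕ} [Fact p.Prime] [CharP k p]
  {σ : MulAut ↥(D.group k)} {g : (Fin l → ℤ) ≃+ (Fin l → ℤ)}
  {G0 : Type*} [Group G0] {e0 : G0 →* ↥(D.group k)}

/-- the preimage of the torus `z T z⁻¹` -/
def tor (hp : IsType D l M) (e0 : G0 →* ↥(D.group k)) (z : ↥(D.group k)) : Subgroup G0 where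
  carrier := {x | z⁻¹ * e0 x * z ∈ TT D k}
  mul_mem' := by
    intro x y hx hy
    show z⁻¹ * e0 (x * y) * z ∈ TT D k
    have h1 : z⁻¹ * e0 (x * y) * z = z⁻¹ * e0 x * z * (z⁻¹ * e0 y * z) := by
      rw [map_mul]
      group
    rw [h1]
    exact mul_mem hx hy
  one_mem' := by
    show z⁻¹ * e0 1 * z ∈ TT D k
    rw [map_one, mul_one, inv_mul_cancel]
    exact one_mem _
  inv_mem' := by
    intro x hx
    show z⁻¹ * e0 x⁻¹ * z ∈ TT D k
    have h1 : z⁻¹ * e0 x⁻¹ * z = (z⁻¹ * e0 x * z)⁻¹ := by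
      rw [map_inv]
      group
    rw [h1]
    exact inv_mem hx

theorem mem_tor {z : ↥(D.group k)} {x : G0} : x ∈ tor hp e0 z ↔ z⁻¹ * e0 x * z ∈ TT D k := Iff.rfl

theorem tor_comm (he0 : Function.Injective e0) (z : ↥(D.group k)) : ∀ x ∈ tor hp e0 z, ∀ y ∈ tor hp e0 z,
    x * y = y * x := by
  intro x hx y hy
  apply he0
  have h1 := TT_comm hp _ hx _ hy
  have h2 : e0 x * e0 y = z * (z⁻¹ * e0 x * z * (z⁻¹ * e0 y * z)) * z⁻¹ := by group
  have h3 : e0 y * e0 x = z * (z⁻¹ * e0 y * z * (z⁻¹ * e0 x * z)) * z⁻¹ := by group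
  rw [map_mul, map_mul, h2, h3, h1]

/-- descent of the torsion elements -/
theorem desc (he0 : Function.Injective e0) {d : ℕ} (hd : ∀ y, σ y = y → y ^ d ∈ e0.range) {n z : ↥(D.group k)}
    (hz : n = z⁻¹ * σ z) {N : ℕ} (hN : N.Coprime d) {ι : Type*} {T : ι → ↥(D.group k)} (hTi : Function.Injective T)
    (hT : ∀ j, T j ∈ TT D k ∧ (MulAut.conj n * σ) (T j) = T j ∧ T j ^ N = 1) :
    ∃ X : ι → G0, Function.Injective X ∧ ∀ j, X j ∈ tor hp e0 z ∧ X j ^ N = 1 := by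
  have hex : ∀ j : ι, ∃ x : G0, e0 x = z * T j ^ d * z⁻¹ := by
    intro j
    obtain ⟨x, hx⟩ := hd _ (fix_conj hz (hT j).2.1)
    exact ⟨x, by rw [hx, conj_pow]⟩
  choose X hX using hex
  refine ⟨X, fun j j' hjj => hTi ?_, fun j => ⟨?_, he0 ?_⟩⟩
  · have h2 : T j ^ d = T j' ^ d := by
      have h3 : z * T j ^ d * z⁻¹ = z * T j' ^ d * z⁻¹ := by rw [← hX, ← hX, hjj]
      exact mul_left_cancel (mul_right_cancel h3)
    have hc : Commute (T j) (T j')⁻¹ := (show Commute (T j) (T j') from TT_comm hp _ (hT j).1 _ (hT j').1).inv_right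
    have h3 : orderOf (T j * (T j')⁻¹) ∣ Nat.gcd N d := by
      refine Nat.dvd_gcd (orderOf_dvd_of_pow_eq_one ?_) (orderOf_dvd_of_pow_eq_one ?_)
      · rw [hc.mul_pow, inv_pow, (hT j).2.2, (hT j').2.2, inv_one, one_mul]
      · rw [hc.mul_pow, inv_pow, h2, mul_inv_cancel]
    rw [hN, Nat.dvd_one, orderOf_eq_one_iff] at h3
    exact mul_inv_eq_one.1 h3
  · show z⁻¹ * e0 (X j) * z ∈ TT D k
    have h1 : z⁻¹ * e0 (X j) * z = T j ^ d := by
      rw [hX]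
      group
    rw [h1]
    exact pow_mem (hT j).1 d
  · rw [map_pow, hX, conj_pow, ← pow_mul, mul_comm d, pow_mul, (hT j).2.2, one_pow, mul_one, mul_inv_cancel, map_one]

/-- **A commutative subgroup containing a Sylow `ℓ`-subgroup and elements of order `m`.** -/
theorem abel_of_eig [Finite G0] (hk : LocFin k) (he : 0 < e) (hσ : IsFrob p e σ)
    (F : Fr cs hp.isCartan (TT D k) (XX D l k) σ g) {d' : ℕ} {B' : Fin l → Fin l → ℤ} (hB : InvC D l d' B')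
    (hd' : d' ≠ 0) (he0 : Function.Injective e0) {d : ℕ} (hd : ∀ y, σ y = y → y ^ d ∈ e0.range)
    {w : W} {Th : Fin l → Fin l → ℤ} (hw : ∀ j, rep cs hp.isCartan w (g (sr j)) = Th j)
    {f : ℕ} {c : Fin (f + 1) → ℤ} {r : ℕ} {V : Fin r → Fin (f + 1) → Fin l → ℤ} {U : Fin r → Fin l → ℤ}
    (h : ∀ i, EigOK (fun i j => Th j i) c (V i) (U i)) (hUV : ∀ i j, i ≠ j → ∀ s, ∑ m, U j m * V i s m = 0)
    (hr : 0 < r)
    {ℓ : ℕ} [hℓ : Fact ℓ.Prime] (hℓd : ¬ ℓ ∣ d) (hℓp : ℓ ≠ p) {a : ℕ}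
    (ha : ((ℓ ^ a : ℕ) : ℤ) ∣ pv c ((p ^ e : ℕ) : ℤ)) (hcard : (Nat.card G0).factorization ℓ ≤ a * r)
    {m : ℕ} [hm : Fact m.Prime] (hmd : ¬ m ∣ d) (hmp : m ≠ p) (hmc : (m : ℤ) ∣ pv c ((p ^ e : ℕ) : ℤ)) :
    ∃ A : Subgroup G0, IsMulCommutative A ∧ ¬ ℓ ∣ A.index ∧ m ∣ Nat.card A := by
  obtain ⟨n, z, hz, hσ', F'⟩ := exists_z hp cs hk he hσ F w
  have fam : ∀ N : ℕ, N ≠ 0 → ¬ p ∣ N → N.Coprime d → (N : ℤ) ∣ pv c ((p ^ e : ℕ) : ℤ) →
      ∃ X : (Fin r → Fin N) → G0, Function.Injective X ∧ ∀ j, X j ∈ tor hp e0 z ∧ X j ^ N = 1 := by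
    intro N hN0 hNp hNd hNc
    obtain ⟨T, hTi, hT⟩ := exists_fam hp cs hσ' F' hB hd' (L := fun i => lam (V i) ((p ^ e : ℕ) : ℤ)) hN0 hNp
      (fun i x => hL_of_eig hp cs hw (h i) hNc x) (x₀ := U) (fun i j => by
        by_cases hij : i = j
        · subst hij
          rw [if_pos rfl]
          exact lam_unit (h i) _
        · rw [if_neg hij]
          exact lam_zero (hUV i j hij) _)
    exact desc hp he0 hd hz hNd hTi hT
  have hnp : ∀ {s : ℕ}, s.Prime → s ≠ p → ∀ b : ℕ, ¬ p ∣ s ^ b := fun hs hsp b h1 =>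
    hsp ((Nat.prime_dvd_prime_iff_eq (Fact.out : p.Prime) hs).1 ((Fact.out : p.Prime).dvd_of_dvd_pow h1)).symm
  have hAc : IsMulCommutative (tor hp e0 z) :=
    ⟨⟨fun x y => Subtype.ext (tor_comm hp he0 z x x.2 y y.2)⟩⟩
  refine ⟨tor hp e0 z, hAc, ?_, ?_⟩
  · obtain ⟨X, hXi, hX⟩ := fam (ℓ ^ a) (pow_ne_zero _ hℓ.out.ne_zero) (hnp hℓ.out hℓp a)
      (((Nat.Prime.coprime_iff_not_dvd hℓ.out).2 hℓd).pow_left a) ha
    let A : Subgroup G0 :=
      { carrier := {x | x ∈ tor hp e0 z ∧ x ^ ℓ ^ a = 1}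
        mul_mem' := by
          rintro x y ⟨hx, hx'⟩ ⟨hy, hy'⟩
          refine ⟨mul_mem hx hy, ?_⟩
          have h1 : Commute x y := tor_comm hp he0 z x hx y hy
          rw [h1.mul_pow, hx', hy', one_mul]
        one_mem' := ⟨one_mem _, one_pow _⟩
        inv_mem' := by
          rintro x ⟨hx, hx'⟩
          exact ⟨inv_mem hx, by rw [inv_pow, hx', inv_one]⟩ }
    have hAl : IsPGroup ℓ A := fun x => ⟨a, Subtype.ext x.2.2⟩
    obtain ⟨b, hb⟩ := (IsPGroup.iff_card.1 hAl)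
    have hcA : ℓ ^ (a * r) ≤ Nat.card A := by
      have h1 := Nat.card_le_card_of_injective (fun j => (⟨X j, hX j⟩ : ↥A)) (fun j j' hjj =>
        hXi (congrArg Subtype.val hjj))
      rw [Nat.card_fun, Nat.card_eq_fintype_card, Nat.card_eq_fintype_card, Fintype.card_fin, Fintype.card_fin,
        ← pow_mul] at h1
      exact h1
    have hb' : (Nat.card G0).factorization ℓ ≤ b := by
      rw [hb] at hcA
      exact hcard.trans ((Nat.pow_le_pow_iff_right hℓ.out.one_lt).1 hcA)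
    have hle : A ≤ tor hp e0 z := fun x hx => hx.1
    intro hi
    have h1 : ℓ ∣ A.index := hi.trans (Subgroup.index_dvd_of_le hle)
    have h2 : ℓ ^ (b + 1) ∣ Nat.card G0 := by
      rw [pow_succ, ← hb, ← A.card_mul_index]
      exact Nat.mul_dvd_mul_left _ h1
    have h3 := (hℓ.out.pow_dvd_iff_le_factorization Nat.card_pos.ne').1 h2
    omega
  · obtain ⟨X, hXi, hX⟩ := fam m hm.out.ne_zero (by have := hnp hm.out hmp 1; rwa [pow_one] at this)
      ((Nat.Prime.coprime_iff_not_dvd hm.out).2 hmd) hmc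
    have h2 : 2 ≤ m := hm.out.two_le
    have hne : X (fun _ => ⟨0, by omega⟩) ≠ X (fun _ => ⟨1, by omega⟩) := by
      intro h1
      have h3 := congrFun (hXi h1) ⟨0, hr⟩
      simp at h3
    have : ∃ x ∈ tor hp e0 z, x ≠ 1 ∧ x ^ m = 1 := by
      by_cases h1 : X (fun _ => ⟨0, by omega⟩) = 1
      · exact ⟨_, (hX _).1, fun h3 => hne (h1.trans h3.symm), (hX _).2⟩
      · exact ⟨_, (hX _).1, h1, (hX _).2⟩
    obtain ⟨x, hx, hx1, hxm⟩ := this
    have ho : orderOf x = m := orderOf_eq_prime hxm hx1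
    have h4 : orderOf (⟨x, hx⟩ : ↥(tor hp e0 z)) = m := by rw [← ho]; exact (Subgroup.orderOf_mk x hx)
    rw [← h4]
    exact orderOf_dvd_natCard _

end Main

/-- `Kill` from commutative subgroups -/
theorem kill_of_abel {G : Type u} [Group G] [Finite G] {q e : ℕ}
    (h : ∀ p l : ℕ, p.Prime → l.Prime → p ≠ 2 → l ≠ 2 → p ≠ l → p ∣ Nat.card G → l ∣ Nat.card G →
      ord q p = e → ord q l = e → ∃ A : Subgroup G, IsMulCommutative A ∧ ¬ p ∣ A.index ∧ l ∣ Nat.card A) :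
    Kill G q e e := by
  intro p l hp hl hp2 hl2 hpl hpG hlG h1 h2 hS
  obtain ⟨A, hA, hi, hlA⟩ := h p l hp hl hp2 hl2 hpl hpG hlG h1 h2
  exact Cfsg.Agent.H990.PQ.Same.core_abelian hp hl hpl hS A hA hi hlA

end Cfsg.Agent.H897.PQ
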