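import Cfsg.Agent.H897.PQ.Eig

/-!
# S4612: pairs of primes of the same order, untwisted groups (PQ-X2, helper897)

* `pd3` ... `pd30` : the full power of `ℓ` divides the value of the cyclotomic polynomial;
* `kill_tab` : `Kill G q e e`, `3 ≤ e`, from a table of eigenfunctionals.
-/

set_option autoImplicit false
set_option linter.unusedSectionVars false

namespace Cfsg.Agent.H897.PQ

open CoxeterSystem Cfsg Cfsg.Lie Cfsg.Lie.ChevalleyDatum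
open Cfsg.Agent.ChevalleyStructure Cfsg.Agent.ChevalleyStructure.Elts Cfsg.Agent.ChevalleyStructure.CoxeterGeom
  Cfsg.Agent.ChevalleyStructure.CoxeterGeomTypes Cfsg.Agent.ChevalleyStructure.NPerm
open Cfsg.Agent.Tits.Roots Cfsg.Agent.Tits.Core Cfsg.Agent.Nodes Cfsg.Agent.Nodes.Reps Cfsg.Agent.Nodes.BNOf
  Cfsg.Agent.Nodes.RGDChev Cfsg.Agent.Nodes.Bruhat Cfsg.Agent.Nodes.SubComb Cfsg.Agent.Nodes.Coroot
open Cfsg.Agent.BpExc.Tow Cfsg.Agent.BpExc.TowChev Cfsg.Agent.BpExc.FamExt Cfsg.Agent.BpExc.FamUntw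
  Cfsg.Agent.BpExc.FamInst Cfsg.Agent.BpExc.LangFr Cfsg.Agent.BpExc.FamField Cfsg.Agent.BpExc.Fr
open Cfsg.Agent.GpExc.Field (emb emb_injective)
open Cfsg.Agent.H129.WData Cfsg.Agent.H493.PGTorus Cfsg.Agent.H493.PGTwist Cfsg.Agent.H378.CycTab
open Cfsg.Agent.H28.T5Tor Cfsg.Agent.H28.T5TorRows Cfsg.Agent.H317.PQ
open Cfsg.Agent.H172.SI Cfsg.Agent.H129

universe u

section Num

variable {ℓ : ℕ} [hℓ : Fact ℓ.Prime]

/-- the cofactor divides a product of `q ^ a - 1` with `a` not divisible by the order -/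
theorem pd_aux {q m f : ℕ} (hq : 1 ≤ q) (ho : orderOf (q : ZMod ℓ) = m) {c : Fin f → ℤ} {g1 g2 g3 : ℤ}
    {a b c' : ℕ} (ha : ¬ m ∣ a) (hb : ¬ m ∣ b) (hc : ¬ m ∣ c') (h1 : g1 ∣ (q : ℤ) ^ a - 1)
    (h2 : g2 ∣ (q : ℤ) ^ b - 1) (h3 : g3 ∣ (q : ℤ) ^ c' - 1) (e : pv c (q : ℤ) * (g1 * g2 * g3) = (q : ℤ) ^ m - 1) :
    ((ℓ ^ padicValNat ℓ (q ^ m - 1) : ℕ) : ℤ) ∣ pv c (q : ℤ) := by
  refine pow_dvd_pv hq e ?_
  intro h
  have hpi : Prime (ℓ : ℤ) := Nat.prime_iff_prime_int.1 hℓ.out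
  rcases hpi.dvd_or_dvd h with h | h
  · rcases hpi.dvd_or_dvd h with h | h
    · have := (dvd_iff a).1 (h.trans h1)
      rw [ho] at this
      exact ha this
    · have := (dvd_iff b).1 (h.trans h2)
      rw [ho] at this
      exact hb this
  · have := (dvd_iff c').1 (h.trans h3)
    rw [ho] at this
    exact hc this

theorem pd3 {q : ℕ} (hq : 1 ≤ q) (ho : orderOf (q : ZMod ℓ) = 3) :
    ((ℓ ^ padicValNat ℓ (q ^ 3 - 1) : ℕ) : ℤ) ∣ pv c3 (q : ℤ) := dvd_c3 hq ho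

theorem pd4 {q : ℕ} (hq : 1 ≤ q) (ho : orderOf (q : ZMod ℓ) = 4) :
    ((ℓ ^ padicValNat ℓ (q ^ 4 - 1) : ℕ) : ℤ) ∣ pv c4 (q : ℤ) := dvd_c4 hq ho

theorem pd5 {q : ℕ} (hq : 1 ≤ q) (ho : orderOf (q : ZMod ℓ) = 5) :
    ((ℓ ^ padicValNat ℓ (q ^ 5 - 1) : ℕ) : ℤ) ∣ pv c5 (q : ℤ) :=
  pd_aux hq ho (a := 1) (b := 1) (c' := 1) (g1 := (q : ℤ) ^ 1 - 1) (g2 := 1) (g3 := 1) (by norm_num) (by norm_num)
    (by norm_num) dvd_rfl (one_dvd _) (one_dvd _) (by rw [pv5]; ring)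

theorem pd6 {q : ℕ} (hq : 1 ≤ q) (ho : orderOf (q : ZMod ℓ) = 6) :
    ((ℓ ^ padicValNat ℓ (q ^ 6 - 1) : ℕ) : ℤ) ∣ pv c6 (q : ℤ) := dvd_c6 hq ho

theorem pd7 {q : ℕ} (hq : 1 ≤ q) (ho : orderOf (q : ZMod ℓ) = 7) :
    ((ℓ ^ padicValNat ℓ (q ^ 7 - 1) : ℕ) : ℤ) ∣ pv c7 (q : ℤ) :=
  pd_aux hq ho (a := 1) (b := 1) (c' := 1) (g1 := (q : ℤ) ^ 1 - 1) (g2 := 1) (g3 := 1) (by norm_num) (by norm_num)
    (by norm_num) dvd_rfl (one_dvd _) (one_dvd _) (by rw [pv7]; ring)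

theorem pd8 {q : ℕ} (hq : 1 ≤ q) (ho : orderOf (q : ZMod ℓ) = 8) :
    ((ℓ ^ padicValNat ℓ (q ^ 8 - 1) : ℕ) : ℤ) ∣ pv c8 (q : ℤ) :=
  pd_aux hq ho (a := 4) (b := 1) (c' := 1) (g1 := (q : ℤ) ^ 4 - 1) (g2 := 1) (g3 := 1) (by norm_num) (by norm_num)
    (by norm_num) dvd_rfl (one_dvd _) (one_dvd _) (by rw [pv8]; ring)

theorem pd9 {q : ℕ} (hq : 1 ≤ q) (ho : orderOf (q : ZMod ℓ) = 9) :
    ((ℓ ^ padicValNat ℓ (q ^ 9 - 1) : ℕ) : ℤ) ∣ pv c9 (q : ℤ) :=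
  pd_aux hq ho (a := 3) (b := 1) (c' := 1) (g1 := (q : ℤ) ^ 3 - 1) (g2 := 1) (g3 := 1) (by norm_num) (by norm_num)
    (by norm_num) dvd_rfl (one_dvd _) (one_dvd _) (by rw [pv9]; ring)

theorem pd10 {q : ℕ} (hq : 1 ≤ q) (ho : orderOf (q : ZMod ℓ) = 10) :
    ((ℓ ^ padicValNat ℓ (q ^ 10 - 1) : ℕ) : ℤ) ∣ pv c10 (q : ℤ) :=
  pd_aux hq ho (a := 5) (b := 2) (c' := 1) (g1 := (q : ℤ) ^ 5 - 1) (g2 := (q : ℤ) + 1) (g3 := 1) (by norm_num)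
    (by norm_num) (by norm_num) dvd_rfl ⟨(q : ℤ) - 1, by ring⟩ (one_dvd _) (by rw [pv10]; ring)

theorem pd12 {q : ℕ} (hq : 1 ≤ q) (ho : orderOf (q : ZMod ℓ) = 12) :
    ((ℓ ^ padicValNat ℓ (q ^ 12 - 1) : ℕ) : ℤ) ∣ pv c12 (q : ℤ) :=
  pd_aux hq ho (a := 6) (b := 4) (c' := 1) (g1 := (q : ℤ) ^ 6 - 1) (g2 := (q : ℤ) ^ 2 + 1) (g3 := 1) (by norm_num)
    (by norm_num) (by norm_num) dvd_rfl ⟨(q : ℤ) ^ 2 - 1, by ring⟩ (one_dvd _) (by rw [pv12]; ring)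

theorem pd14 {q : ℕ} (hq : 1 ≤ q) (ho : orderOf (q : ZMod ℓ) = 14) :
    ((ℓ ^ padicValNat ℓ (q ^ 14 - 1) : ℕ) : ℤ) ∣ pv c14 (q : ℤ) :=
  pd_aux hq ho (a := 7) (b := 2) (c' := 1) (g1 := (q : ℤ) ^ 7 - 1) (g2 := (q : ℤ) + 1) (g3 := 1) (by norm_num)
    (by norm_num) (by norm_num) dvd_rfl ⟨(q : ℤ) - 1, by ring⟩ (one_dvd _) (by rw [pv14]; ring)

theorem pd15 {q : ℕ} (hq : 1 ≤ q) (ho : orderOf (q : ZMod ℓ) = 15) :
    ((ℓ ^ padicValNat ℓ (q ^ 15 - 1) : ℕ) : ℤ) ∣ pv c15 (q : ℤ) :=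
  pd_aux hq ho (a := 5) (b := 3) (c' := 1) (g1 := (q : ℤ) ^ 5 - 1) (g2 := (q : ℤ) ^ 2 + q + 1) (g3 := 1)
    (by norm_num) (by norm_num) (by norm_num) dvd_rfl ⟨(q : ℤ) - 1, by ring⟩ (one_dvd _) (by rw [pv15]; ring)

theorem pd18 {q : ℕ} (hq : 1 ≤ q) (ho : orderOf (q : ZMod ℓ) = 18) :
    ((ℓ ^ padicValNat ℓ (q ^ 18 - 1) : ℕ) : ℤ) ∣ pv c18 (q : ℤ) :=
  pd_aux hq ho (a := 9) (b := 6) (c' := 1) (g1 := (q : ℤ) ^ 9 - 1) (g2 := (q : ℤ) ^ 3 + 1) (g3 := 1) (by norm_num)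
    (by norm_num) (by norm_num) dvd_rfl ⟨(q : ℤ) ^ 3 - 1, by ring⟩ (one_dvd _) (by rw [pv18]; ring)

theorem pd20 {q : ℕ} (hq : 1 ≤ q) (ho : orderOf (q : ZMod ℓ) = 20) :
    ((ℓ ^ padicValNat ℓ (q ^ 20 - 1) : ℕ) : ℤ) ∣ pv c20 (q : ℤ) :=
  pd_aux hq ho (a := 10) (b := 4) (c' := 1) (g1 := (q : ℤ) ^ 10 - 1) (g2 := (q : ℤ) ^ 2 + 1) (g3 := 1)
    (by norm_num) (by norm_num) (by norm_num) dvd_rfl ⟨(q : ℤ) ^ 2 - 1, by ring⟩ (one_dvd _) (by rw [pv20]; ring)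

theorem pd24 {q : ℕ} (hq : 1 ≤ q) (ho : orderOf (q : ZMod ℓ) = 24) :
    ((ℓ ^ padicValNat ℓ (q ^ 24 - 1) : ℕ) : ℤ) ∣ pv c24 (q : ℤ) :=
  pd_aux hq ho (a := 12) (b := 8) (c' := 1) (g1 := (q : ℤ) ^ 12 - 1) (g2 := (q : ℤ) ^ 4 + 1) (g3 := 1)
    (by norm_num) (by norm_num) (by norm_num) dvd_rfl ⟨(q : ℤ) ^ 4 - 1, by ring⟩ (one_dvd _) (by rw [pv24]; ring)

theorem pd30 {q : ℕ} (hq : 1 ≤ q) (ho : orderOf (q : ZMod ℓ) = 30) :
    ((ℓ ^ padicValNat ℓ (q ^ 30 - 1) : ℕ) : ℤ) ∣ pv c30 (q : ℤ) :=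
  pd_aux hq ho (a := 15) (b := 10) (c' := 6) (g1 := (q : ℤ) ^ 15 - 1) (g2 := (q : ℤ) ^ 5 + 1)
    (g3 := (q : ℤ) ^ 2 - q + 1) (by norm_num) (by norm_num) (by norm_num) dvd_rfl ⟨(q : ℤ) ^ 5 - 1, by ring⟩
    ⟨((q : ℤ) + 1) * ((q : ℤ) ^ 3 - 1), by ring⟩ (by rw [pv30]; ring)

theorem wt_eq_zero {p e : ℕ} {ds : List ℕ} (h : ∀ k ∈ ds, e ∣ k → ¬ p ∣ k) : wt p e ds = 0 := by
  induction ds with
  | nil => rfl
  | cons k ds ih =>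
    rw [wt, ih fun k hk => h k (List.mem_cons_of_mem _ hk), add_zero]
    split_ifs with h1
    · exact padicValNat.eq_zero_of_not_dvd (h k List.mem_cons_self h1)
    · rfl

end Num

/-- the check of the degrees: no odd prime `s` of order `e` divides a degree divisible by `e` -/
def Chk (e : ℕ) (ds : List ℕ) : Prop :=
  ∀ k ∈ ds, e ∣ k → ∀ s ∈ List.range (k + 1), s ∣ k → e ∣ s - 1 → s % 2 = 1 → s ≤ 1

instance (e : ℕ) (ds : List ℕ) : Decidable (Chk e ds) := by unfold Chk; infer_instance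

theorem ord_dvd_pred {q s e : ℕ} (hs : s.Prime) (he0 : e ≠ 0) (he : ord q s = e) : e ∣ s - 1 := by
  haveI : Fact s.Prime := ⟨hs⟩
  rw [← he]
  apply ZMod.orderOf_dvd_card_sub_one
  intro h
  apply he0
  rw [← he, ord, h, orderOf_eq_zero_iff']
  intro n hn h2
  rw [zero_pow hn.ne'] at h2
  exact zero_ne_one h2

/-- **`Kill G q e e`, untwisted groups.** -/
theorem kill_tab {D : ChevalleyDatum} {l : ℕ} {M : CoxeterMatrix (Fin l)} (hp : IsType D l M)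
    (hW : Finite M.Group) {d : ℕ} {B : Fin l → Fin l → ℤ} (hB : InvC D l d B) (hd : d ≠ 0) (hd3 : d ≤ 3)
    {dd : ℕ → ℕ} {N : ℕ} {ds : List ℕ} (hdeg : Deg D dd N ds) (hds : ∀ k ∈ ds, 0 < k)
    {w : M.Group} {Th : Mat l} (hw : ∀ j, rep M.toCoxeterSystem hp.isCartan w (sr j) = Th j)
    {f r : ℕ} (hr : 0 < r) {c : Fin (f + 1) → ℤ} {V : Fin r → Fin (f + 1) → Fin l → ℤ} {U : Fin r → Fin l → ℤ}
    (h : TabOK Th c V U) {F : Type} [Field F] [Fintype F] {e : ℕ} (he3 : 3 ≤ e)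
    (hpd : ∀ {s : ℕ} [Fact s.Prime], orderOf (Fintype.card F : ZMod s) = e →
      ((s ^ padicValNat s (Fintype.card F ^ e - 1) : ℕ) : ℤ) ∣ pv c ((Fintype.card F : ℕ) : ℤ))
    (hnm : nm e ds = r) (hchk : Chk e ds) : Kill ↥(D.group F) (Fintype.card F) e e := by
  have hfin : Finite ↥(D.group F) := Nat.finite_of_card_ne_zero (by
    intro h0
    have h1 := hdeg.card (F := F)
    rw [h0, mul_zero] at h1
    have h2 : Fintype.card F ^ N * pr (Fintype.card F) ds ≠ 0 :=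
      mul_ne_zero (pow_ne_zero _ Fintype.card_ne_zero) (pr_ne_zero Fintype.one_lt_card hds)
    exact h2 h1.symm)
  have he0 : e ≠ 0 := by omega
  refine kill_of_abel ?_
  intro s m hs hm hs2 hm2 hsm hsG hmG hse hme
  haveI : Fact s.Prime := ⟨hs⟩
  haveI : Fact m.Prime := ⟨hm⟩
  have hq2 : 2 ≤ Fintype.card F := Fintype.one_lt_card
  have big : ∀ {t : ℕ}, t.Prime → ord (Fintype.card F) t = e → 3 < t := by
    intro t ht hte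
    have h1 := Nat.le_of_dvd (by have := ht.two_le; omega) (ord_dvd_pred ht he0 hte)
    omega
  have nd : ∀ {t : ℕ}, t.Prime → ord (Fintype.card F) t = e → ¬ t ∣ d := by
    intro t ht hte h1
    have h2 := Nat.le_of_dvd (by omega) h1
    have h3 := big ht hte
    omega
  have hsq : ¬ s ∣ Fintype.card F := not_dvd_of he0 hse
  have hmq : ¬ m ∣ Fintype.card F := not_dvd_of he0 hme
  obtain ⟨k, _, _, g, p, _, _, n, hk, -, hn0, hn⟩ := Cfsg.Agent.H378.TorFin.exists_closure F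
  have hc : Nat.card F = Fintype.card F := Nat.card_eq_fintype_card
  rw [hc] at hn
  have hsp : s ≠ p := by
    rintro rfl
    exact hsq (hn ▸ dvd_pow_self _ hn0.ne')
  have hmp : m ≠ p := by
    rintro rfl
    exact hmq (hn ▸ dvd_pow_self _ hn0.ne')
  have h1 := fact_le (hs.odd_of_ne_two hs2) hsq hq2 hds (n := Nat.card ↥(D.group F)) (N := N)
    ⟨dd (Fintype.card F), by rw [mul_comm (Nat.card ↥(D.group F)), hdeg.card]; rfl⟩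
  have hwt : wt s e ds = 0 := wt_eq_zero (fun k hk hek hsk => by
    have h2 := hchk k hk hek s (List.mem_range.2 (Nat.lt_succ_of_le (Nat.le_of_dvd (hds k hk) hsk))) hsk
      (ord_dvd_pred hs he0 hse) (Nat.odd_iff.1 (hs.odd_of_ne_two hs2))
    have := hs.two_le
    omega)
  have hse' : orderOf (Fintype.card F : ZMod s) = e := hse
  rw [hse', hwt, add_zero, hnm] at h1
  have hmc : (m : ℤ) ∣ pv c ((Fintype.card F : ℕ) : ℤ) := by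
    refine dvd_trans ?_ (hpd (s := m) hme)
    have h2 : m ∣ Fintype.card F ^ e - 1 := (ord_dvd (by omega)).1 (by rw [hme])
    have h3 : 1 ≤ padicValNat m (Fintype.card F ^ e - 1) := by
      apply one_le_padicValNat_of_dvd _ h2
      have h4 : 2 ^ e ≤ Fintype.card F ^ e := Nat.pow_le_pow_left hq2 e
      have h5 : 1 < 2 ^ e := Nat.one_lt_two_pow he0
      omega
    exact_mod_cast dvd_pow_self m (by omega : padicValNat m (Fintype.card F ^ e - 1) ≠ 0)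
  have hsc := hpd (s := s) hse
  rw [hn] at hsc hmc
  rw [hn] at h1
  exact abel_of_eig hp M.toCoxeterSystem hk hn0 (phi_isFrob p n) (phi_fr hp M.toCoxeterSystem p hk n) hB hd
    (emb_injective hp.inList g) (fun y hy => Cfsg.Agent.H378.RootTor.fix_pow_mem' hp g p (by rw [hc, hn]) hB hd hy)
    hw h.1 h.2 hr (fun h3 => nd hs hse (h3.trans (Nat.gcd_dvd_left _ _))) hsp hsc h1
    (fun h3 => nd hm hme (h3.trans (Nat.gcd_dvd_left _ _))) hmp hmc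

end Cfsg.Agent.H897.PQ
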